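import Cfsg.Agent.H151.K547.ExtRgd
import Cfsg.Agent.H307.QE.Defs

/-!
# S4547: the converse, and the normalised automorphisms (helper151)

* `exists_hom_of_D3` : `D3 (AutExt τ)` gives an invariant homomorphism of `U` onto `C₂ × C₂`;
* `goodRep_of_nrm` : a normalised automorphism (`H307.QE.Nrm`) which is not inner is a good representative;
* `D3_iff` : `D3 (AutExt τ)` iff there is such a homomorphism.
-/

set_option autoImplicit false
set_option linter.unusedSectionVars false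

open Cfsg

namespace Cfsg.Agent.H151.K547

open Cfsg.Agent.H821.K547

universe u

section conv

variable {S : Type u} [Group S] {g : MulAut S} {U : Subgroup S}

/-- the inclusion of `U` in `U ⋊ <g>` -/
def inU (hf : ∀ x, g x ∈ U ↔ x ∈ U) : U →* semiU hf where
  toFun u := ⟨SemidirectProduct.inl (u : S), u.2⟩
  map_one' := rfl
  map_mul' a b := Subtype.ext (map_mul _ (a : S) (b : S))

/-- the generator `g` of `U ⋊ <g>` -/
def gU (hf : ∀ x, g x ∈ U ↔ x ∈ U) : semiU hf :=
  ⟨SemidirectProduct.inr ⟨g, Subgroup.mem_zpowers g⟩, U.one_mem⟩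

theorem gU_conj (hf : ∀ x, g x ∈ U ↔ x ∈ U) (u : U) :
    gU hf * inU hf u = inU hf (resU hf u) * gU hf := by
  apply Subtype.ext
  refine SemidirectProduct.ext ?_ ?_
  · change (1 : S) * g (u : S) = g (u : S) * (1 : S)
    rw [one_mul, mul_one]
  · change (⟨g, Subgroup.mem_zpowers g⟩ : Subgroup.zpowers g) * 1 = 1 * ⟨g, Subgroup.mem_zpowers g⟩
    rw [one_mul, mul_one]

theorem exists_eq_mul (hf : ∀ x, g x ∈ U ↔ x ∈ U) (x : semiU hf) :
    ∃ (u : U) (k : ℤ), x = inU hf u * gU hf ^ k := by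
  obtain ⟨k, hk⟩ := Subgroup.mem_zpowers_iff.1 x.1.right.2
  refine ⟨⟨x.1.left, x.2⟩, k, ?_⟩
  have h1 : gU hf ^ k = (⟨SemidirectProduct.inr x.1.right, U.one_mem⟩ : semiU hf) := by
    apply Subtype.ext
    rw [SubgroupClass.coe_zpow]
    change (SemidirectProduct.inr ⟨g, Subgroup.mem_zpowers g⟩ : S ⋊[(Subgroup.zpowers g).subtype] ↥(Subgroup.zpowers g)) ^ k =
      SemidirectProduct.inr x.1.right
    rw [← map_zpow]
    congr 1
    exact Subtype.ext hk
  rw [h1]
  apply Subtype.ext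
  refine SemidirectProduct.ext ?_ ?_
  · change x.1.left = x.1.left * (1 : S)
    rw [mul_one]
  · change x.1.right = 1 * x.1.right
    rw [one_mul]

theorem sq_eq_one {n : ℕ} (x : Multiplicative (Fin n → ZMod 2)) : x * x = 1 := by
  apply Multiplicative.toAdd.injective
  funext i
  exact CharTwo.add_self_eq_zero _

/-- **The converse.** -/
theorem exists_hom_of_D3 [Finite S] {τ : MulAut S} (hZ : Subgroup.center S = ⊥) (G : GoodRep τ g U)
    (hU : IsPGroup 2 U) (hi : ¬ 2 ∣ U.index) (h : D3 (AutExt τ)) :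
    ∃ f : U →* Multiplicative (Fin 2 → ZMod 2), Function.Surjective f ∧ f.comp (resU G.fix) = f := by
  have : Fact (Nat.Prime 2) := ⟨Nat.prime_two⟩
  obtain ⟨e⟩ := nonempty_semi hZ G
  obtain ⟨m, hm⟩ := G.pow
  have hfin : Finite (MulAut S) := inferInstance
  have hf := G.fix
  have hFin : Finite (S ⋊[(Subgroup.zpowers g).subtype] ↥(Subgroup.zpowers g)) :=
    Finite.of_equiv _ (SemidirectProduct.equivProd).symm
  have hD : D3 (S ⋊[(Subgroup.zpowers g).subtype] ↥(Subgroup.zpowers g)) := D3_congr e.symm h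
  have hZ := isPGroup_zpowers hm
  have hcard : Nat.card ↥(semiU hf) = Nat.card U * Nat.card ↥(Subgroup.zpowers g) := by
    rw [Nat.card_congr (semiEquiv hf), Nat.card_prod]
  have hcardS : Nat.card (S ⋊[(Subgroup.zpowers g).subtype] ↥(Subgroup.zpowers g)) =
      Nat.card S * Nat.card ↥(Subgroup.zpowers g) := by
    rw [Nat.card_congr SemidirectProduct.equivProd, Nat.card_prod]
  have hP : IsPGroup 2 (semiU hf) := by
    obtain ⟨a, ha⟩ := IsPGroup.iff_card.1 hU
    obtain ⟨b, hb⟩ := IsPGroup.iff_card.1 hZ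
    refine IsPGroup.of_card (n := a + b) ?_
    rw [hcard, ha, hb, pow_add]
  have hI : ¬ 2 ∣ (semiU hf).index := by
    have h1 := (semiU hf).card_mul_index
    rw [hcard, hcardS, ← U.card_mul_index] at h1
    have h2 : 0 < Nat.card U * Nat.card ↥(Subgroup.zpowers g) := Nat.mul_pos Nat.card_pos Nat.card_pos
    have h3 : (semiU hf).index = U.index := by
      apply Nat.eq_of_mul_eq_mul_left h2
      rw [h1]
      ring
    rwa [h3]
  obtain ⟨φ, hφ⟩ : Rk 3 ↥(semiU hf) := hD (hP.toSylow hI)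
  let F : U →* Multiplicative (Fin 3 → ZMod 2) := φ.comp (inU hf)
  have hinv : F.comp (resU hf) = F := by
    ext1 u
    change φ (inU hf (resU hf u)) = φ (inU hf u)
    have h1 := congrArg φ (gU_conj hf u)
    rw [map_mul, map_mul, mul_comm] at h1
    exact (mul_right_cancel h1).symm
  -- the image has at least four elements
  have h8 : Nat.card (Multiplicative (Fin 3 → ZMod 2)) = 8 := by
    rw [Nat.card_congr Multiplicative.toAdd, Nat.card_eq_fintype_card, Fintype.card_fun, ZMod.card, Fintype.card_fin]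
    norm_num
  have h4 : 2 ^ 2 ≤ Nat.card F.range := by
    have h1 : Nat.card (Multiplicative (Fin 3 → ZMod 2)) ≤ Nat.card (F.range × Fin 2) := by
      refine Nat.card_le_card_of_surjective (fun x : F.range × Fin 2 => (x.1 : Multiplicative (Fin 3 → ZMod 2)) *
        φ (gU hf) ^ (x.2 : ℕ)) ?_
      intro y
      obtain ⟨x, rfl⟩ := hφ y
      obtain ⟨u, k, rfl⟩ := exists_eq_mul hf x
      have h2 : φ (gU hf) ^ (2 : ℤ) = 1 := by
        rw [zpow_two]
        exact sq_eq_one _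
      rcases Int.even_or_odd k with ⟨c, hc⟩ | ⟨c, hc⟩
      · refine ⟨(⟨F u, u, rfl⟩, 0), ?_⟩
        change F u * φ (gU hf) ^ 0 = φ (inU hf u * gU hf ^ k)
        rw [map_mul, map_zpow, hc, ← two_mul, zpow_mul, h2, one_zpow, pow_zero]
        rfl
      · refine ⟨(⟨F u, u, rfl⟩, 1), ?_⟩
        change F u * φ (gU hf) ^ 1 = φ (inU hf u * gU hf ^ k)
        rw [map_mul, map_zpow, hc, zpow_add, zpow_mul, h2, one_zpow, one_mul, zpow_one, pow_one]
        rfl
    rw [h8, Nat.card_prod, Nat.card_eq_fintype_card (α := Fin 2), Fintype.card_fin] at h1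
    omega
  obtain ⟨ψ, hψ⟩ : Rk 2 F.range := rk_of_elem (fun x y => Subtype.ext (mul_comm _ _))
    (fun x => Subtype.ext (sq_eq_one _)) h4
  refine ⟨ψ.comp F.rangeRestrict, hψ.comp F.rangeRestrict_surjective, ?_⟩
  ext1 u
  change ψ (F.rangeRestrict (resU hf u)) = ψ (F.rangeRestrict u)
  congr 1
  exact Subtype.ext (DFunLike.congr_fun hinv u)

/-- the two homomorphisms -/
theorem D3_of_hom' [Finite S] {τ : MulAut S} (hZ : Subgroup.center S = ⊥) (G : GoodRep τ g U)
    (hU : IsPGroup 2 U) (hi : ¬ 2 ∣ U.index) {f : U →* Multiplicative (Fin 2 → ZMod 2)} (hs : Function.Surjective f)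
    (hf : f.comp (resU G.fix) = f) : D3 (AutExt τ) := by
  let c : Fin 2 → Multiplicative (Fin 2 → ZMod 2) →* C2 := fun i =>
    { toFun := fun x => Multiplicative.ofAdd (Multiplicative.toAdd x i)
      map_one' := rfl
      map_mul' := fun _ _ => rfl }
  have hinv : ∀ i, ((c i).comp f).comp (resU G.fix) = (c i).comp f := fun i => by
    rw [MonoidHom.comp_assoc, hf]
  obtain ⟨u, hu⟩ := hs (Multiplicative.ofAdd ![1, 0])
  obtain ⟨v, hv⟩ := hs (Multiplicative.ofAdd ![0, 1])
  have hne : ∀ {a b : U →* C2} (x : U), a x ≠ b x → a ≠ b := fun x hx e => hx (by rw [e])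
  refine D3_of_rep hZ G hU hi (l := (c 0).comp f) (l' := (c 1).comp f) (hne u ?_) (hne v ?_) (hne u ?_) (hinv 0) (hinv 1)
  · change c 0 (f u) ≠ 1
    rw [hu]
    decide
  · change c 1 (f v) ≠ 1
    rw [hv]
    decide
  · change c 0 (f u) ≠ c 1 (f u)
    rw [hu]
    decide

/-- **`D3 (AutExt τ)` iff `U` maps onto `C₂ × C₂` invariantly.** -/
theorem D3_iff [Finite S] {τ : MulAut S} (hZ : Subgroup.center S = ⊥) (G : GoodRep τ g U)
    (hU : IsPGroup 2 U) (hi : ¬ 2 ∣ U.index) : D3 (AutExt τ) ↔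
    ∃ f : U →* Multiplicative (Fin 2 → ZMod 2), Function.Surjective f ∧ ∀ u v : U, (v : S) = g u → f v = f u := by
  constructor
  · intro h
    obtain ⟨f, hf, he⟩ := exists_hom_of_D3 hZ G hU hi h
    refine ⟨f, hf, fun u v huv => ?_⟩
    have h1 : v = resU G.fix u := Subtype.ext huv
    rw [h1]
    exact DFunLike.congr_fun he u
  · rintro ⟨f, hf, he⟩
    exact D3_of_hom' hZ G hU hi hf (MonoidHom.ext fun u => he u _ rfl)

end conv

section nrm

open CoxeterSystem Cfsg.Agent.ChevalleyStructure.CoxeterGeom Cfsg.Agent.Tits.Roots Cfsg.Agent.Tits.Core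
  Cfsg.Agent.Tits.Exchange Cfsg.Agent.Nodes.Reps Cfsg.Agent.Nodes.BNOf Cfsg.Agent.Nodes.StabComb
  Cfsg.Agent.Nodes.Bruhat Cfsg.Agent.Nodes.OppDec Cfsg.Agent.Nodes.LeviDec Cfsg.Agent.Nodes.BNOf.RGD
  Cfsg.Agent.KFacts.RgdOpp Cfsg.Agent.KFacts.RgdAut Cfsg.Agent.KFacts.RgdDiag Cfsg.Agent.Nodes.NormalForm

variable {I W : Type*} {Y : Type u} [Fintype I] [DecidableEq I] [Group W] [Group Y] {M : CoxeterMatrix I}
  {cs : CoxeterSystem M W} {A : I → I → ℤ} {h : IsCartan M A} {T : Subgroup Y} {n : I → Y}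
  {X : (I → ℤ) → Subgroup Y} {R : RGD cs h 2 T n X} {β : MulAut Y} {σ : Equiv.Perm I}

/-- a normalised automorphism which is not inner is a good representative -/
theorem goodRep_of_nrm [Finite Y] [Finite W] (hG : GG cs h T X = ⊤) (hZ : Subgroup.center Y = ⊥)
    (hN : H307.QE.Nrm R β σ) (hn : ¬ IsInn β) : GoodRep β β (RGD.Sup X (RGD.Pos cs h)) := by
  obtain ⟨m, hm⟩ := hN.pow
  refine ⟨rfl, ⟨m, hm⟩, ?_, ?_, hN.fixU⟩
  · rintro rfl
    exact hn (isInn_iff.2 ⟨1, (map_one _).symm⟩)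
  · intro j s hj
    have hfix : ∀ {H : Subgroup Y}, Fix β H → Fix (MulAut.conj s) H := by
      intro H hH
      rw [← hj]
      exact fun x => fix_zpow hH (Subgroup.zpow_mem_zpowers _ j) x
    have hcj : ∀ s : Y, MulAut.conj s = 1 → s = 1 := by
      intro s hs
      have h1 : s ∈ Subgroup.center Y := by
        rw [Subgroup.mem_center_iff]
        intro x
        have h2 := DFunLike.congr_fun hs x
        rw [MulAut.conj_apply, MulAut.one_apply] at h2
        exact (mul_inv_eq_iff_eq_mul.1 h2).symm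
      rwa [hZ, Subgroup.mem_bot] at h1
    have h1 : MulAut.conj (s ^ 2 ^ m) = 1 := by
      rw [map_pow, ← hj, ← zpow_natCast, ← zpow_mul, mul_comm, zpow_mul, zpow_natCast, hm, one_zpow]
    have h2 : s = 1 := eq_one_of_conj R hG (hcj _ h1) (hfix hN.fixU) (hfix hN.fixUN)
    rw [hj, h2, map_one]

/-- `D3 (AutExt β)` for a normalised automorphism -/
theorem D3_iff_nrm [Finite Y] [Finite W] (hG : GG cs h T X = ⊤) (hZ : Subgroup.center Y = ⊥)
    (hN : H307.QE.Nrm R β σ) (hn : ¬ IsInn β) : D3 (AutExt β) ↔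
    ∃ f : ↥(RGD.Sup X (RGD.Pos cs h)) →* Multiplicative (Fin 2 → ZMod 2), Function.Surjective f ∧
      ∀ u v : ↥(RGD.Sup X (RGD.Pos cs h)), (v : Y) = β u → f v = f u :=
  D3_iff hZ (goodRep_of_nrm hG hZ hN hn) R.isPGroup_Upos (index_U' R hG)

end nrm

end Cfsg.Agent.H151.K547
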