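import Cfsg.Agent.H151.K547.Psl3Shape

/-!
# S4547, QE7: the cases of the field automorphism (helper151)

* `exists_norm_one` : `φ ≠ 1` of 2-power order, `char F = 2`: there is `z` with `φ z * z = 1`, `φ z ≠ z`;
* `field_cases` : the generic case, `|F| = 4` and `φ = 1`, or the fixed field of `φ` is `{0, 1}`;
* `psl3_cases` : `GInv3 β` or one of the two last cases.
-/

set_option autoImplicit false
set_option linter.unusedSectionVars false

open Cfsg

namespace Cfsg.Agent.H151.K547.Psl3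

section field

variable {F : Type*} [Field F] [CharP F 2]

theorem iter_sub (φ : F ≃+* F) (k : ℕ) (y : F) :
    (fun z : F => φ z - z)^[2 ^ k] y = (φ ^ 2 ^ k) y - y := by
  induction k generalizing y with
  | zero => rfl
  | succ k ih =>
    rw [pow_succ, mul_two, Function.iterate_add_apply, ih, ih, pow_add, map_sub]
    have h1 : (φ ^ 2 ^ k * φ ^ 2 ^ k) y = (φ ^ 2 ^ k) ((φ ^ 2 ^ k) y) := rfl
    rw [h1]
    have h2 : (2 : F) = 0 := CharTwo.two_eq_zero
    linear_combination (-(φ ^ 2 ^ k) y + y) * h2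

/-- an element of norm one -/
theorem exists_norm_one {φ : F ≃+* F} (h : ∃ k : ℕ, φ ^ 2 ^ k = 1) (hφ : φ ≠ 1) :
    ∃ z : F, z ≠ 0 ∧ φ z * z = 1 ∧ φ z ≠ z := by
  obtain ⟨k, hk⟩ := h
  obtain ⟨y₀, hy₀⟩ : ∃ y, φ y ≠ y := by
    by_contra hcon
    push Not at hcon
    exact hφ (RingEquiv.ext hcon)
  let f : F → F := fun z => φ z - z
  have hex : ∃ n : ℕ, f^[n] y₀ = 0 := ⟨2 ^ k, by
    change (fun z : F => φ z - z)^[2 ^ k] y₀ = 0
    rw [iter_sub, hk]
    exact sub_self _⟩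
  classical
  obtain ⟨n, hn, hmin⟩ : ∃ n, f^[n] y₀ = 0 ∧ ∀ m < n, f^[m] y₀ ≠ 0 :=
    ⟨Nat.find hex, Nat.find_spec hex, fun m hm => Nat.find_min hex hm⟩
  have hf0 : f 0 = 0 := by
    change φ 0 - 0 = 0
    rw [map_zero, sub_zero]
  have hn0 : n ≠ 0 := by
    rintro rfl
    have h1 : y₀ = 0 := hn
    exact hy₀ (by rw [h1, map_zero])
  have hn1 : n ≠ 1 := by
    rintro rfl
    have h1 : φ y₀ - y₀ = 0 := hn
    exact hy₀ (sub_eq_zero.1 h1)
  obtain ⟨m, rfl⟩ : ∃ m, n = m + 2 := ⟨n - 2, by omega⟩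
  set y := f^[m] y₀ with hy
  have h1 : φ y - y ≠ 0 := by
    have := hmin (m + 1) (by omega)
    rwa [Function.iterate_succ_apply'] at this
  have h2 : φ (φ y - y) - (φ y - y) = 0 := by
    have := hn
    rwa [Function.iterate_succ_apply', Function.iterate_succ_apply'] at this
  have h3 : φ (φ y) = y := by
    rw [map_sub] at h2
    have h4 : (2 : F) = 0 := CharTwo.two_eq_zero
    linear_combination h2 + (φ y - y) * h4
  have hy0 : y ≠ 0 := by
    intro h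
    rw [h, map_zero, sub_zero] at h1
    exact h1 rfl
  have hφy0 : φ y ≠ 0 := fun h => hy0 ((map_eq_zero φ).1 h)
  refine ⟨y * (φ y)⁻¹, mul_ne_zero hy0 (inv_ne_zero hφy0), ?_, ?_⟩
  · rw [map_mul, map_inv₀, h3]
    field_simp
  · intro h
    rw [map_mul, map_inv₀, h3] at h
    have h4 : φ y * φ y = y * y := by
      have h5 : (φ y * y⁻¹) * (y * φ y) = (y * (φ y)⁻¹) * (y * φ y) := by rw [h]
      field_simp at h5
      linear_combination h5
    have h6 : (φ y - y) * (φ y - y) = 0 := by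
      have h4' : (2 : F) = 0 := CharTwo.two_eq_zero
      linear_combination h4 - (φ y * y - y * y) * h4'
    exact h1 (mul_self_eq_zero.1 h6)

/-- **the cases** -/
theorem field_cases [Fintype F] (h4 : 4 ≤ Fintype.card F) {φ : F ≃+* F} (h : ∃ k : ℕ, φ ^ 2 ^ k = 1) :
    (∃ x y : F, x ≠ 0 ∧ x ≠ 1 ∧ y ≠ 0 ∧ y ≠ 1 ∧ y ≠ x ∧ x * y ≠ 1 ∧ (φ x = x ∨ φ x * x = 1) ∧
      (φ y = y ∨ φ y * y = 1)) ∨ (Fintype.card F = 4 ∧ φ = 1) ∨ ∀ x, φ x = x → x = 0 ∨ x = 1 := by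
  classical
  by_cases hK : ∀ x, φ x = x → x = 0 ∨ x = 1
  · exact Or.inr (Or.inr hK)
  push Not at hK
  obtain ⟨x, hx, hx0, hx1⟩ := hK
  by_cases hφ : φ = 1
  · by_cases h5 : Fintype.card F = 4
    · exact Or.inr (Or.inl ⟨h5, hφ⟩)
    · left
      obtain ⟨y, hy⟩ : ∃ y : F, y ∉ ({0, 1, x, x⁻¹} : Finset F) := by
        by_contra hcon
        push Not at hcon
        have h6 : Fintype.card F ≤ ({0, 1, x, x⁻¹} : Finset F).card := by
          rw [← Finset.card_univ]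
          exact Finset.card_le_card fun y _ => hcon y
        have h7 : ({0, 1, x, x⁻¹} : Finset F).card ≤ 4 := Finset.card_le_four
        omega
      simp only [Finset.mem_insert, Finset.mem_singleton, not_or] at hy
      obtain ⟨hy0, hy1, hy2, hy3⟩ := hy
      refine ⟨x, y, hx0, hx1, hy0, hy1, hy2, fun e => hy3 (eq_inv_of_mul_eq_one_right e), Or.inl hx, Or.inl ?_⟩
      rw [hφ]
      rfl
  · left
    obtain ⟨z, hz0, hz1, hz2⟩ := exists_norm_one h hφ
    refine ⟨x, z, hx0, hx1, hz0, ?_, ?_, ?_, Or.inl hx, Or.inr hz1⟩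
    · rintro rfl
      exact hz2 (map_one φ)
    · rintro rfl
      exact hz2 hx
    · intro e
      have h5 : z = x⁻¹ := eq_inv_of_mul_eq_one_right e
      exact hz2 (by rw [h5, map_inv₀, hx])

end field

section main

open Matrix Cfsg.Agent.H821.K547 Cfsg.Agent.H307.QE Cfsg.Agent.H42.K547.Even
open Cfsg.Agent.ClassicalGeometry.AutPSL.Auto (cj fld itr lift)

variable {F : Type} [Field F] [Fintype F] [CharP F 2] {β : MulAut (ProjectiveSpecialLinearGroup (Fin (2 + 1)) F)}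
  {σ : Equiv.Perm (Fin 2)}

/-- **QE7, the generic case done.** -/
theorem psl3_cases (h4 : 4 ≤ Fintype.card F) (hN : Nrm (rA 2 F) β σ) (hσ : σ ≠ 1) :
    GInv3 β ∨ ∃ (φ : F ≃+* F) (A : GL (Fin 3) F), β = lift (cj A * fld φ * itr) ∧
      (∀ i j, j ≠ Fin.rev i → (A : Matrix (Fin 3) (Fin 3) F) i j = 0) ∧ (∃ k : ℕ, φ ^ 2 ^ k = 1) ∧
      ((Fintype.card F = 4 ∧ φ = 1) ∨ ∀ x, φ x = x → x = 0 ∨ x = 1) := by
  obtain ⟨φ, A, h1, h2, h3, h5⟩ := psl3_fld hN hσ
  rcases field_cases h4 h5 with ⟨x, y, hx0, hx1, hy0, hy1, hxy, hxy', hx, hy⟩ | h6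
  · exact Or.inl (psl3_generic hN φ h3 hx0 hx1 hy0 hy1 hxy hxy' hx hy)
  · exact Or.inr ⟨φ, A, h1, h2, h5, h6⟩

end main

end Cfsg.Agent.H151.K547.Psl3
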