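import Cfsg.Agent.H151.K547.Psl3Gen
import Cfsg.Agent.ClassicalGeometry.AutPSL.Main

/-!
# S4547, QE7: the shape of an automorphism of `PSL₃(q)` which reverses the diagram (helper151)

* `psl3_shape` : `Nrm (rA 2 F) β σ`, `σ ≠ 1`: `β = lift (cj A * fld φ * itr)` with `A` antidiagonal;
* `psl3_dx` : then `β (dx x) = dx (φ x)`;
* `psl3_fld` : both, and `φ` has 2-power order.
-/

set_option autoImplicit false
set_option linter.unusedSectionVars false

open Cfsg

namespace Cfsg.Agent.H151.K547.Psl3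

open Matrix CoxeterSystem Cfsg.Agent.ChevalleyStructure.CoxeterGeom Cfsg.Agent.Tits.Roots Cfsg.Agent.Tits.Core
  Cfsg.Agent.Nodes.BNOf Cfsg.Agent.Nodes.Bruhat Cfsg.Agent.H821.K547 Cfsg.Agent.H307.QE
  Cfsg.Agent.H42.K547.Even Cfsg.Agent.Nodes.RGDTypeA
open Cfsg.Agent.ClassicalGeometry.AutPSL.Auto (cj fld itr lift coe_cj coe_itr coe_fld_apply fld_transvection
  itr_transvection lift_pr)
open Cfsg.Agent.ClassicalGeometry.AutPSL.Main (surj_three cj_transvection_eq)
open Cfsg.Agent.TitsThree.KSideA (tv tv_of_ne)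

section col

variable {F : Type*} [Field F]

theorem col_zero {A : Matrix (Fin 3) (Fin 3) F} {i j k l : Fin 3} {s c : F} (hc : c ≠ 0)
    (h : A * Matrix.single i j c = Matrix.single k l s * A) (r : Fin 3) (hr : r ≠ k) : A r i = 0 := by
  have h1 := congrFun (congrFun h r) j
  rw [Matrix.mul_apply, Matrix.mul_apply, Finset.sum_eq_single i, Finset.sum_eq_zero] at h1
  · rw [Matrix.single_apply_same] at h1
    exact (mul_eq_zero.1 h1).resolve_right hc
  · intro b _
    rw [Matrix.single_apply, if_neg (fun h => hr h.1.symm), zero_mul]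
  · intro b _ hb
    rw [Matrix.single_apply, if_neg (fun h => hb h.1.symm), mul_zero]
  · intro h4
    exact absurd (Finset.mem_univ _) h4

end col

section main

variable {F : Type} [Field F] [Fintype F] [CharP F 2] {β : MulAut (ProjectiveSpecialLinearGroup (Fin (2 + 1)) F)}
  {σ : Equiv.Perm (Fin 2)}

/-- the images of the root elements -/
theorem img_pos (hN : Nrm (rA 2 F) β σ) (i : Fin 2) (t : F) :
    ∃ s : F, β (pr 2 F (SpecialLinearGroup.transvection (Fin.castSucc_lt_succ (i := i)).ne t)) =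
      pr 2 F (SpecialLinearGroup.transvection (Fin.castSucc_lt_succ (i := σ i)).ne s) := by
  have h1 := (hN.diag.pos i (pr 2 F (tv i.castSucc i.succ t))).2 ⟨_, by rw [X_sr]; exact tv_mem_XX _ _ _, rfl⟩
  obtain ⟨y, hy, e⟩ := h1
  rw [X_sr] at hy
  obtain ⟨s, rfl⟩ := hy
  refine ⟨s, ?_⟩
  rw [tv_of_ne (Fin.castSucc_lt_succ (i := i)).ne, tv_of_ne (Fin.castSucc_lt_succ (i := σ i)).ne] at e
  exact e.symm

theorem img_neg (hN : Nrm (rA 2 F) β σ) (i : Fin 2) (t : F) :
    ∃ s : F, β (pr 2 F (SpecialLinearGroup.transvection (Fin.castSucc_lt_succ (i := i)).ne' t)) =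
      pr 2 F (SpecialLinearGroup.transvection (Fin.castSucc_lt_succ (i := σ i)).ne' s) := by
  have h1 := (hN.diag.neg i (pr 2 F (tv i.succ i.castSucc t))).2 ⟨_, by rw [X_neg_sr]; exact tv_mem_XX _ _ _, rfl⟩
  obtain ⟨y, hy, e⟩ := h1
  rw [X_neg_sr] at hy
  obtain ⟨s, rfl⟩ := hy
  refine ⟨s, ?_⟩
  rw [tv_of_ne (Fin.castSucc_lt_succ (i := i)).ne', tv_of_ne (Fin.castSucc_lt_succ (i := σ i)).ne'] at e
  exact e.symm

theorem swap_of_ne (hσ : σ ≠ 1) : σ 0 = 1 ∧ σ 1 = 0 := by
  revert hσ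
  revert σ
  decide

/-- **P2** -/
theorem psl3_shape (hN : Nrm (rA 2 F) β σ) (hσ : σ ≠ 1) :
    ∃ (φ : F ≃+* F) (A : GL (Fin 3) F), β = lift (cj A * fld φ * itr) ∧
      ∀ i j, j ≠ Fin.rev i → (A : Matrix (Fin 3) (Fin 3) F) i j = 0 := by
  have : Fact (Nat.Prime 2) := ⟨Nat.prime_two⟩
  obtain ⟨hσ0, hσ1⟩ := swap_of_ne hσ
  -- the four images
  obtain ⟨s1, h1⟩ := img_pos hN 0 1
  obtain ⟨s2, h2⟩ := img_pos hN 1 1
  obtain ⟨s3, h3⟩ := img_neg hN 0 1
  have e1 : β (pr 2 F (SpecialLinearGroup.transvection (show (0 : Fin 3) ≠ 1 by decide) 1)) =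
      pr 2 F (SpecialLinearGroup.transvection (show (1 : Fin 3) ≠ 2 by decide) s1) := by
    simp only [hσ0] at h1
    exact h1
  have e2 : β (pr 2 F (SpecialLinearGroup.transvection (show (1 : Fin 3) ≠ 2 by decide) 1)) =
      pr 2 F (SpecialLinearGroup.transvection (show (0 : Fin 3) ≠ 1 by decide) s2) := by
    simp only [hσ1] at h2
    exact h2
  have e3 : β (pr 2 F (SpecialLinearGroup.transvection (show (1 : Fin 3) ≠ 0 by decide) 1)) =
      pr 2 F (SpecialLinearGroup.transvection (show (2 : Fin 3) ≠ 1 by decide) s3) := by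
    simp only [hσ0] at h3
    exact h3
  rcases surj_three (n := 3) 2 le_rfl β with ⟨A, φ, hA⟩ | ⟨A, φ, hA⟩
  · exfalso
    have key : ∀ {i j k l : Fin 3} (hij : i ≠ j) (hkl : k ≠ l) {s : F},
        β (pr 2 F (SpecialLinearGroup.transvection hij 1)) = pr 2 F (SpecialLinearGroup.transvection hkl s) →
        ∀ r, r ≠ k → (A : Matrix (Fin 3) (Fin 3) F) r i = 0 := by
      intro i j k l hij hkl s h
      have h4 : Cfsg.Agent.ClassicalGeometry.AutPSL.Root.pr (cj A (SpecialLinearGroup.transvection hij 1)) =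
          Cfsg.Agent.ClassicalGeometry.AutPSL.Root.pr (SpecialLinearGroup.transvection hkl s) := by
        rw [hA] at h
        have h5 : lift (cj A * fld φ) (Cfsg.Agent.ClassicalGeometry.AutPSL.Root.pr
          (SpecialLinearGroup.transvection hij (1 : F))) =
            Cfsg.Agent.ClassicalGeometry.AutPSL.Root.pr (SpecialLinearGroup.transvection hkl s) := h
        rwa [lift_pr, MulAut.mul_apply, fld_transvection, map_one] at h5
      exact col_zero one_ne_zero (cj_transvection_eq h4)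
    have k1 := key _ _ e2
    have k2 := key _ _ e3
    have h4 : (A : Matrix (Fin 3) (Fin 3) F).det = 0 := by
      refine Matrix.det_eq_zero_of_column_eq_zero 1 fun r => ?_
      by_cases hr : r = 0
      · exact k2 r (by rw [hr]; decide)
      · exact k1 r hr
    have h5 : IsUnit (A : Matrix (Fin 3) (Fin 3) F).det := by
      rw [← Matrix.isUnit_iff_isUnit_det]
      exact A.isUnit
    rw [h4] at h5
    exact not_isUnit_zero h5
  · refine ⟨φ, A, hA, ?_⟩
    have key : ∀ {i j k l : Fin 3} (hij : i ≠ j) (hkl : k ≠ l) {s : F},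
        β (pr 2 F (SpecialLinearGroup.transvection hij 1)) = pr 2 F (SpecialLinearGroup.transvection hkl s) →
        ∀ r, r ≠ k → (A : Matrix (Fin 3) (Fin 3) F) r j = 0 := by
      intro i j k l hij hkl s h
      have h4 : Cfsg.Agent.ClassicalGeometry.AutPSL.Root.pr
          (cj A (SpecialLinearGroup.transvection hij.symm (φ (-1)))) =
          Cfsg.Agent.ClassicalGeometry.AutPSL.Root.pr (SpecialLinearGroup.transvection hkl s) := by
        rw [hA] at h
        have h5 : lift (cj A * fld φ * itr) (Cfsg.Agent.ClassicalGeometry.AutPSL.Root.pr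
          (SpecialLinearGroup.transvection hij (1 : F))) =
            Cfsg.Agent.ClassicalGeometry.AutPSL.Root.pr (SpecialLinearGroup.transvection hkl s) := h
        rwa [lift_pr, MulAut.mul_apply, itr_transvection, MulAut.mul_apply, fld_transvection] at h5
      refine col_zero ?_ (cj_transvection_eq h4)
      rw [Ne, map_eq_zero]
      exact neg_ne_zero.2 one_ne_zero
    have k1 := key _ _ e1
    have k2 := key _ _ e2
    have k3 := key _ _ e3
    intro i j hij
    fin_cases j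
    · exact k3 i (by rintro rfl; exact hij rfl)
    · exact k1 i (by rintro rfl; exact hij rfl)
    · exact k2 i (by rintro rfl; exact hij rfl)

/-- the action on the torus -/
theorem psl3_dx {φ : F ≃+* F} {A : GL (Fin 3) F} (h : β = lift (cj A * fld φ * itr))
    (hA : ∀ i j, j ≠ Fin.rev i → (A : Matrix (Fin 3) (Fin 3) F) i j = 0) (x y : Fˣ) (hxy : φ (x : F) = y) :
    β (pr 2 F (dx x)) = pr 2 F (dx y) := by
  have h1 : (cj A * fld φ * itr : MulAut (SpecialLinearGroup (Fin 3) F)) (dx x) = dx y := by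
    rw [MulAut.mul_apply, MulAut.mul_apply]
    have h2 : ((fld φ (itr (dx x)) : SpecialLinearGroup (Fin 3) F) : Matrix (Fin 3) (Fin 3) F) =
        Matrix.diagonal ![(y : F)⁻¹, 1, (y : F)] := by
      have h3 : (itr (dx x) : SpecialLinearGroup (Fin 3) F) = dx x⁻¹ := by
        apply Subtype.ext
        rw [coe_itr]
        have h4 : (dx x)⁻¹ = dx x⁻¹ := by
          rw [dx, ← map_inv]
          change _ = H507.K4.SizeA.dg (x⁻¹, 1)
          rw [← inv_one, Prod.inv_mk, inv_one, inv_one]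
        rw [h4]
        change (dx x⁻¹ : Matrix (Fin 3) (Fin 3) F)ᵀ = (dx x⁻¹ : Matrix (Fin 3) (Fin 3) F)
        rw [dx_coe, Matrix.diagonal_transpose]
      rw [h3]
      ext a b
      rw [coe_fld_apply, dx_coe, Matrix.diagonal_apply, Matrix.diagonal_apply]
      by_cases hab : a = b
      · rw [if_pos hab, if_pos hab]
        subst hab
        fin_cases a
        · change φ ((x⁻¹ : Fˣ) : F) = (y : F)⁻¹
          rw [Units.val_inv_eq_inv_val, map_inv₀, hxy]
        · exact map_one φ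
        · change φ (((x⁻¹ : Fˣ) : F)⁻¹) = (y : F)
          rw [Units.val_inv_eq_inv_val, inv_inv, hxy]
      · rw [if_neg hab, if_neg hab, map_zero]
    apply Subtype.ext
    rw [coe_cj]
    have h5 : (A : Matrix (Fin 3) (Fin 3) F) * ((fld φ (itr (dx x)) : SpecialLinearGroup (Fin 3) F) :
        Matrix (Fin 3) (Fin 3) F) = (dx y : Matrix (Fin 3) (Fin 3) F) * (A : Matrix (Fin 3) (Fin 3) F) := by
      rw [h2, dx_coe]
      ext a b
      rw [Matrix.mul_diagonal, Matrix.diagonal_mul]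
      by_cases hab : b = Fin.rev a
      · subst hab
        rw [mul_comm]
        congr 1
        fin_cases a <;> rfl
      · rw [hA a b hab, zero_mul, mul_zero]
    rw [h5, mul_assoc, ← Units.val_mul, mul_inv_cancel, Units.val_one, mul_one]
  rw [h]
  change lift (cj A * fld φ * itr) (Cfsg.Agent.ClassicalGeometry.AutPSL.Root.pr (dx x)) = _
  rw [lift_pr, h1]
  rfl

theorem dx_pr_inj {x y : Fˣ} (h : pr 2 F (dx x) = pr 2 F (dx y)) : x = y := by
  by_contra hne
  refine pr_dx_ne_one (x := x * y⁻¹) (fun e => hne (mul_inv_eq_one.1 e)) ?_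
  have h1 : dx (x * y⁻¹) = dx x * (dx y)⁻¹ := by
    rw [dx, dx, dx, ← map_inv, ← map_mul]
    congr 1
    ext <;> simp
  rw [h1, map_mul, map_inv, h, mul_inv_cancel]

/-- **P2**, all together -/
theorem psl3_fld (hN : Nrm (rA 2 F) β σ) (hσ : σ ≠ 1) :
    ∃ (φ : F ≃+* F) (A : GL (Fin 3) F), β = lift (cj A * fld φ * itr) ∧
      (∀ i j, j ≠ Fin.rev i → (A : Matrix (Fin 3) (Fin 3) F) i j = 0) ∧
      (∀ x y : Fˣ, φ (x : F) = y → β (pr 2 F (dx x)) = pr 2 F (dx y)) ∧ ∃ k : ℕ, φ ^ 2 ^ k = 1 := by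
  obtain ⟨φ, A, h1, h2⟩ := psl3_shape hN hσ
  have h3 := psl3_dx h1 h2
  refine ⟨φ, A, h1, h2, h3, ?_⟩
  obtain ⟨k, hk⟩ := hN.pow
  refine ⟨k, ?_⟩
  have h4 : ∀ (m : ℕ) (x y : Fˣ), (φ ^ m) (x : F) = y → (β ^ m) (pr 2 F (dx x)) = pr 2 F (dx y) := by
    intro m
    induction m with
    | zero =>
      intro x y hxy
      have : x = y := Units.ext hxy
      rw [this]
      rfl
    | succ m ih =>
      intro x y hxy
      rw [pow_succ, MulAut.mul_apply]
      have h5 : φ (x : F) ≠ 0 := fun h => x.ne_zero ((map_eq_zero φ).1 h)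
      rw [h3 x (Units.mk0 _ h5) rfl]
      refine ih _ _ ?_
      rw [Units.val_mk0, ← hxy, pow_succ]
      rfl
  apply RingEquiv.ext
  intro z
  by_cases hz : z = 0
  · rw [hz, map_zero, map_zero]
  · have h5 : (φ ^ 2 ^ k) z ≠ 0 := fun h => hz ((map_eq_zero _).1 h)
    have h6 := h4 (2 ^ k) (Units.mk0 z hz) (Units.mk0 _ h5) rfl
    rw [hk] at h6
    exact (congrArg Units.val (dx_pr_inj h6)).symm

end main

end Cfsg.Agent.H151.K547.Psl3
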