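import Cfsg.Agent.H151.K547.Psl3Shape
import Cfsg.Agent.H71.QE.Four
import Cfsg.Agent.H71.QE.FieldCases

/-!
# S4547, QE7: `psl3_swap` (helper151, helper71)

`GInv3 β` for an automorphism of `PSL₃(q)`, `q ≥ 4` even, which reverses the diagram.
-/

set_option autoImplicit false
set_option linter.unusedSectionVars false

open Cfsg

namespace Cfsg.Agent.H151.K547.Psl3

open Matrix Cfsg.Agent.H821.K547 Cfsg.Agent.H307.QE Cfsg.Agent.H42.K547.Even

/-- **QE7** -/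
theorem psl3_swap {F : Type} [Field F] [Fintype F] [CharP F 2] (h4 : 4 ≤ Fintype.card F)
    {β : MulAut (ProjectiveSpecialLinearGroup (Fin (2 + 1)) F)} {σ : Equiv.Perm (Fin 2)} (hN : Nrm (rA 2 F) β σ)
    (hσ : σ ≠ 1) : GInv3 β := by
  obtain ⟨φ, A, h1, -, h3, k, hk⟩ := psl3_fld hN hσ
  have hit : ∀ (m : ℕ) (x : F), φ^[m] x = (φ ^ m) x := by
    intro m
    induction m with
    | zero => intro x; rfl
    | succ m ih => intro x; rw [Function.iterate_succ_apply, ih, pow_succ]; rfl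
  rcases H71.QE.field_cases (by rwa [Nat.card_eq_fintype_card]) φ ⟨k, fun x => by rw [hit, hk]; rfl⟩ with
    ⟨hF, hφ⟩ | ⟨h3d, hφ⟩ | ⟨x, y, hx0, hx1, hy0, hy1, hxy, hxy', hx, hy⟩
  · exact H71.QE.gInv3_four twoC_psl3 hF hN.pow hφ h1
  · obtain ⟨ζ, hζ, x₀, hx₀⟩ := H71.QE.exists_zeta h3d
    exact H71.QE.gInv3_cube twoC_psl3 hN.pow h1 hζ hx₀ hφ
  · exact psl3_generic hN φ h3 hx0 hx1 hy0 hy1 hxy hxy' hx hy

end Cfsg.Agent.H151.K547.Psl3
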